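import Cfsg.Agent.H25.UGDefs
import Cfsg.Agent.H31.HermCount

/-! A Sylow subgroup is transitive on a coset of a maximal isotropic subspace. -/

set_option autoImplicit false

namespace Cfsg.Agent.H8.UgSyl

open Cfsg Module MulAction Cfsg.Agent.H31 Cfsg.Agent.H25.UG
open Cfsg.Agent.H53.Uw (St)

universe u

theorem dvd_ncard_orbit {G X : Type*} [Group G] [MulAction G X] (P : Subgroup G) (x : X) {m : ℕ}
    (hc : m.Coprime P.index) (h : m ∣ (orbit G x).ncard) : m ∣ (orbit P x).ncard := by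
  rw [← index_stabilizer] at h ⊢
  refine hc.dvd_of_dvd_mul_right (h.trans ?_)
  change _ ∣ (stabilizer G x).relIndex P * _
  rw [← Subgroup.inf_relIndex_right, Subgroup.relIndex_mul_index inf_le_right]
  exact Subgroup.index_dvd_of_le inf_le_left

theorem syl (h1 : Syl1Stmt.{u}) : SylStmt.{u} := by
  intro E V _ _ _ _ _ σ B q G st rk le tr
  have : FiniteDimensional E V := Module.Finite.of_finite
  have : Finite (V ≃ₗ[E] V) := finite_linearEquiv
  obtain ⟨n, hp, hn⟩ := FiniteField.card E (ringChar E)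
  have : Fact (ringChar E).Prime := ⟨hp⟩
  obtain ⟨P⟩ := (inferInstance : Nonempty (Sylow (ringChar E) G))
  have sle : (P : Subgroup G).map G.subtype ≤ G := Subgroup.map_subtype_le _
  have pg := P.isPGroup'.map G.subtype
  obtain ⟨W, v, ti, rW, inv, vv, ov, mv⟩ := h1 E V σ B q _ st rk (sle.trans le) pg
  refine ⟨_, W, v, sle, sle.trans le, pg, ti, rW, inv, vv, ov, mv, fun w hw => ?_⟩
  have c1 : (orbit G v).ncard = cN q 7 := by
    rw [← (card_stdB_eq st.card st.pow 7).2 1 (map_one σ) one_ne_zero,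
      ← st.herm.card_norm_congr rk, ← Nat.card_coe_set_eq]
    refine Nat.card_congr (Equiv.subtypeEquivRight fun x => ⟨?_, fun hx => ?_⟩)
    · rintro ⟨g, rfl⟩
      exact (le g.2 v v).trans vv
    · obtain ⟨g, hg, e⟩ := tr v x (vv.trans hx.symm) (vv ▸ one_ne_zero)
      exact ⟨⟨g, hg⟩, e⟩
  have cq : (q ^ 6).Coprime (P : Subgroup G).index := by
    have := ((Nat.Prime.coprime_iff_not_dvd hp).2 P.not_dvd_index).pow_left n
    rw [← hn, st.card] at this
    exact (Nat.coprime_pow_left_iff two_pos _ _).1 this |>.pow_left 6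
  have d := dvd_ncard_orbit (P : Subgroup G) v cq (by rw [c1, cN, if_neg (by decide)]; simp)
  have sub : orbit (P : Subgroup G) v ⊆ (v + ·) '' (W : Set V) := by
    rintro _ ⟨g, rfl⟩
    exact ⟨_, mv g.1.1 ⟨g.1, g.2, rfl⟩, add_sub_cancel _ _⟩
  have c2 : ((v + ·) '' (W : Set V)).ncard = q ^ 6 := by
    rw [Set.ncard_image_of_injective _ (add_right_injective v), ← Nat.card_coe_set_eq]
    change Nat.card W = _
    rw [Module.natCard_eq_pow_finrank (K := E), rW, Nat.card_eq_fintype_card, st.card, ← pow_mul]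
  have e := Set.eq_of_subset_of_ncard_le sub (c2.trans_le (Nat.le_of_dvd
    ((Set.ncard_pos (Set.toFinite _)).2 (nonempty_orbit v)) d))
  obtain ⟨g, hg⟩ : v + w ∈ orbit (P : Subgroup G) v := e ▸ ⟨w, hw, rfl⟩
  exact ⟨g.1.1, ⟨g.1, g.2, rfl⟩, hg⟩

end Cfsg.Agent.H8.UgSyl
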