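import Cfsg.Agent.H41.S6Kit2
import Cfsg.Agent.H41.DihP

/-! Project SP6, piece END. -/

set_option autoImplicit false
set_option maxRecDepth 100000

namespace Cfsg.Agent.H8.S6

open Cfsg Subgroup
open Cfsg.Agent.H44 Cfsg.Agent.H55.Sp6 Cfsg.Agent.H2.L3E Cfsg.Agent.H41.S6

universe u

theorem w_aa : r12 * r12 = 1 := by
  rw [r12, sg, ← ev_append, ← ev_nil g]; exact weq (by decide +kernel)

theorem w_bb : r23 * r23 = 1 := by
  rw [r23, sg, ← ev_append, ← ev_nil g]; exact weq (by decide +kernel)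

theorem w_zz : r13 * r13 = 1 := by
  rw [r13, sg, ← ev_append, ← ev_nil g]; exact weq (by decide +kernel)

theorem w_cc : r12 * r23 * (r12 * r23) = r13 := by
  simp only [r12, r23, r13, sg, ← ev_append]; exact weq (by decide +kernel)

theorem w_r2 : r23 * r32 * r13 = r12 * (r23 * r32) := by
  simp only [r12, r23, r13, r32, sg, ← ev_append]; exact weq (by decide +kernel)

theorem w_r3 : r23 * r32 * r12 = r12 * r13 * (r23 * r32) := by
  simp only [r12, r23, r13, r32, sg, ← ev_append]; exact weq (by decide +kernel)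

theorem w_s2 : r12 * r21 * r13 = r12 * (r12 * r23) * (r12 * r21) := by
  simp only [r12, r23, r13, r21, sg, ← ev_append]; exact weq (by decide +kernel)

theorem w_s3 : r12 * r21 * (r12 * (r12 * r23)) = r12 * (r12 * r23) * r13 * (r12 * r21) := by
  simp only [r12, r23, r13, r21, sg, ← ev_append]; exact weq (by decide +kernel)

theorem r13_not : r13 ∉ A := fun h => by
  have := (mem_A3.1 h).2.2
  rw [r13, sg, act_wd (by decide) (by omega)] at this
  exact absurd this (by decide +kernel)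

theorem syl {G : Type u} [Group G] [Finite G] {ι : Sp →* G} {t : G} (h : Hy ι t) :
    H8.IsSylowIn 2 (T0.map ι ⊔ zpowers t) (P3.map ι ⊔ zpowers t) := by
  refine isSylowIn_of_maximal (sup_le_sup_right (map_mono T0_le_P3) _) ?_ fun Q hQ h1 h2 x hx => ?_
  · rintro ⟨x, hx⟩
    obtain ⟨a, ha, e⟩ := (h.mem_sup T0).1 hx
    obtain ⟨k, hk⟩ := isPGroup_T0 ⟨a, ha⟩
    have hk' : a ^ 2 ^ k = 1 := congrArg Subtype.val hk
    refine ⟨k + 1, Subtype.ext ?_⟩
    change x ^ 2 ^ (k + 1) = 1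
    rcases e with rfl | rfl
    · rw [← map_pow, pow_succ, pow_mul, hk', one_pow, map_one]
    · rw [Commute.mul_pow (h.ct a), ← map_pow, pow_succ 2 k, pow_mul a, hk', one_pow, map_one,
        mul_one, mul_comm, pow_mul, pow_two, h.tt, one_pow]
  · have e := sylow_T0.eq_of_le (hQ.comap_of_injective ι h.inj) le_top
      (map_le_iff_le_comap.1 (le_sup_left.trans h2))
    obtain ⟨a, -, rfl | rfl⟩ := (h.mem_sup P3).1 (h1 hx)
    · exact (h.mem_sup T0).2 ⟨a, e.le hx, Or.inl rfl⟩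
    · exact (h.mem_sup T0).2 ⟨a, e.le ((Q.mul_mem_cancel_left
        (h2 (mem_sup_right (mem_zpowers t)))).1 hx), Or.inr rfl⟩

theorem en : EndStmt.{u} := by
  intro _ G _ _ ι t h gtx H C CH nC tH hP AC cC cos fus
  have nN : (C.subgroupOf H).Normal := ⟨fun c hc x => nC x x.2 c hc⟩
  let π := QuotientGroup.mk' (C.subgroupOf H)
  have hπ : ∀ x : H, π x = 1 ↔ (x : G) ∈ C := fun x => QuotientGroup.eq_one_iff x
  let j : P3 →* H := (ι.comp P3.subtype).codRestrict H fun p => (hP p).2 p.2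
  let ψ := π.comp j
  let τ := π ⟨t, tH⟩
  have k1 : ∀ p : P3, ψ p = 1 ↔ (p : Sp) ∈ A := fun p => by
    refine (hπ _).trans ⟨fun k => ?_, fun k => AC (mem_map_of_mem ι k)⟩
    obtain ⟨a, ha, e⟩ := cC _ k (h.ct p).symm
    rwa [show a = p from h.inj e] at ha
  have k2 : ∀ p : P3, τ * ψ p = ψ p * τ := fun p => by
    change π _ * π _ = π _ * π _
    rw [← map_mul, ← map_mul]
    exact congrArg π (Subtype.ext (h.ct p))
  have k3 : ∀ p : P3, ψ p ≠ τ := fun p e => by
    have : π (⟨t, tH⟩⁻¹ * j p) = 1 := by rw [map_mul, map_inv]; exact inv_mul_eq_one.2 e.symm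
    have m : t⁻¹ * ι p ∈ C := (hπ _).1 this
    rw [h.tinv] at m
    obtain ⟨a, -, e⟩ := cC _ m (by rw [mul_assoc, ← h.ct])
    exact h.ne_t _ _ e
  let a : P3 := ⟨r12, T0_le_P3 r12_T0⟩
  let b : P3 := ⟨r23, T0_le_P3 r23_T0⟩
  let z : P3 := ⟨r13, T0_le_P3 r13_T0⟩
  let d : P3 := ⟨r32, r32_P3⟩
  let e : P3 := ⟨r21, r21_P3⟩
  have aa : a * a = 1 := Subtype.ext w_aa
  have bb : b * b = 1 := Subtype.ext w_bb
  have cc : ψ (a * b) ^ 2 ^ (0 + 1) = ψ z := by
    rw [← map_pow]; exact congrArg ψ (Subtype.ext (by simpa [pow_two] using w_cc))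
  have DH : P3.map ι ⊔ zpowers t ≤ H :=
    sup_le (by rintro _ ⟨p, hp, rfl⟩; exact (hP p).2 hp) (zpowers_le.2 tH)
  have e1 : ((P3.map ι ⊔ zpowers t).subgroupOf H).map π = centralizer {τ} := by
    refine le_antisymm ?_ fun y hy => ?_
    · rintro _ ⟨x, hx, rfl⟩
      rw [mem_centralizer_singleton_iff, ← map_mul, ← map_mul]
      refine congrArg π (Subtype.ext ?_)
      change (x : G) * t = t * x
      obtain ⟨p, -, e | e⟩ := (h.mem_sup P3 (x := x)).1 hx <;> rw [e]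
      · exact (h.ct p).symm
      · rw [mul_assoc, ← h.ct]
    · obtain ⟨x, rfl⟩ := QuotientGroup.mk'_surjective _ y
      have : π (⟨t, tH⟩⁻¹ * (x * ⟨t, tH⟩ * x⁻¹)) = 1 := by
        have hy' : π x * τ = τ * π x := mem_centralizer_singleton_iff.1 hy
        rw [map_mul, map_mul, map_mul, map_inv, map_inv, hy']
        exact inv_mul_eq_one.2 (mul_inv_cancel_right _ _).symm
      have m : t⁻¹ * (x * t * (x : G)⁻¹) ∈ C := (hπ _).1 this
      obtain ⟨c, hc, ec⟩ := cos _ m (by rw [mul_inv_cancel_left]; exact isConj_iff.2 ⟨x, rfl⟩)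
      rw [mul_inv_cancel_left] at ec
      obtain ⟨l, hl⟩ := h.cen (c⁻¹ * x) (by
        calc c⁻¹ * x * t = c⁻¹ * (x * t * (x : G)⁻¹) * x := by group
          _ = _ := by rw [← ec]; group)
      have m2 : c⁻¹ * x ∈ H := mul_mem (inv_mem (CH hc)) x.2
      have lP : l ∈ P3 := (hP l).1 (hl.elim (fun e => e ▸ m2)
        fun e => (H.mul_mem_cancel_left tH).1 (e ▸ m2))
      refine ⟨⟨c, CH hc⟩⁻¹ * x, (h.mem_sup P3).2 ⟨l, lP, hl⟩, ?_⟩
      rw [map_mul, map_inv, (hπ ⟨c, CH hc⟩).2 hc, inv_one, one_mul]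
  have ba : ψ b = ψ a * ψ (a * b) := by rw [← map_mul, ← mul_assoc, aa, one_mul]
  have e2 : ((T0.map ι ⊔ zpowers t).subgroupOf H).map π = Subgroup.closure {τ, ψ (a * b), ψ a} := by
    have ma : ψ a ∈ Subgroup.closure {τ, ψ (a * b), ψ a} :=
      subset_closure (Or.inr (Or.inr rfl))
    have mb : ψ b ∈ Subgroup.closure {τ, ψ (a * b), ψ a} := by
      rw [ba]
      exact mul_mem ma (subset_closure (Or.inr (Or.inl rfl)))
    have md : Subgroup.closure ({r12, r23} : Set Sp) ≤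
        ((Subgroup.closure {τ, ψ (a * b), ψ a}).comap ψ).map P3.subtype := (closure_le _).2 (by
      rintro _ (rfl | rfl)
      · exact ⟨a, ma, rfl⟩
      · exact ⟨b, mb, rfl⟩)
    have mu : ∀ s (hs : s ∈ T0), ψ ⟨s, T0_le_P3 hs⟩ ∈ Subgroup.closure {τ, ψ (a * b), ψ a} :=
      fun s hs => by
        obtain ⟨v, hv, w, hw, e⟩ := T0_par hs
        obtain ⟨w', hw', e'⟩ := mem_map.1 (md hw)
        rw [show (⟨s, T0_le_P3 hs⟩ : P3) = ⟨v, A_le_P3 hv⟩ * w' from
          Subtype.ext (e.trans (congrArg (v * ·) e'.symm)), map_mul ψ _ w',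
          (k1 ⟨v, A_le_P3 hv⟩).2 hv, one_mul]
        exact mem_comap.1 hw'
    refine le_antisymm ?_ ((closure_le _).2 ?_)
    · rintro _ ⟨x, hx, rfl⟩
      obtain ⟨s, hs, e | e⟩ := (h.mem_sup T0).1 hx
      · rw [show x = j ⟨s, T0_le_P3 hs⟩ from Subtype.ext e]
        exact mu s hs
      · rw [show x = ⟨t, tH⟩ * j ⟨s, T0_le_P3 hs⟩ from Subtype.ext e, map_mul π]
        exact mul_mem (Subgroup.subset_closure (Set.mem_insert τ _)) (mu s hs)
    · rintro _ (rfl | rfl | rfl)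
      · exact ⟨_, mem_sup_right (mem_zpowers t), rfl⟩
      · exact ⟨j (a * b), mem_sup_left (mem_map_of_mem ι (mul_mem r12_T0 r23_T0)), rfl⟩
      · exact ⟨j a, mem_sup_left (mem_map_of_mem ι r12_T0), rfl⟩
  have sy := ((syl h).subgroupOf DH).map π
  rw [e1, e2] at sy
  obtain ⟨M, hM, tM⟩ := H41.Dih.dihP _ τ (ψ (a * b)) (ψ a) (ψ (b * d)) (ψ (a * e)) 0
    (by rw [← map_mul, hπ]; change t * t ∈ C; rw [h.tt]; exact one_mem _)
    (by rw [← map_mul, aa, map_one])
    (orderOf_eq_prime_pow (p := 2) (n := 0 + 1) (by rw [cc, k1]; exact r13_not) (by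
      rw [pow_succ 2, pow_mul, cc, pow_two, ← map_mul, show z * z = 1 from Subtype.ext w_zz, map_one]))
    (by
      rw [← map_mul, ← map_mul, ← map_inv, ← mul_assoc, aa, one_mul, mul_inv_rev,
        inv_eq_of_mul_eq_one_right aa, inv_eq_of_mul_eq_one_right bb])
    (k2 _) (k2 _)
    (fun k => by
      obtain ⟨p, hp⟩ := ((closure_le ψ.range).2 (by
        rintro _ (rfl | rfl) <;> exact ⟨_, rfl⟩) : _ ≤ ψ.range) k
      exact k3 p hp)
    sy (k2 _).symm
    (by
      rw [cc, mul_inv_eq_iff_eq_mul, ← map_mul, ← map_mul]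
      exact congrArg ψ (Subtype.ext w_r2))
    (by
      rw [cc, mul_inv_eq_iff_eq_mul, ← map_mul, ← map_mul, ← map_mul]
      exact congrArg ψ (Subtype.ext w_r3))
    (k2 _).symm
    (by
      rw [cc, mul_inv_eq_iff_eq_mul, ← map_mul, ← map_mul, ← map_mul]
      exact congrArg ψ (Subtype.ext w_s2))
    (by
      rw [cc, mul_inv_eq_iff_eq_mul, ← map_mul, ← map_mul, ← map_mul, ← map_mul]
      exact congrArg ψ (Subtype.ext w_s3))
  refine gtx H ((M.comap π).map H.subtype) ?_ tH (fun k => tM ?_)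
    (fun u hu => (hP u).2 (T0_le_P3 hu)) fus
  · rw [relIndex, subgroupOf, comap_map_eq_self_of_injective H.subtype_injective,
      index_comap_of_surjective _ (QuotientGroup.mk'_surjective _), hM]
  · obtain ⟨x, hx, e⟩ := k
    rwa [show x = ⟨t, tH⟩ from Subtype.ext e] at hx

end Cfsg.Agent.H8.S6
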