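import Cfsg.Agent.H35.RfQ

/-! Project RF: the complement `Q / W` in the cocode case. -/

set_option autoImplicit false

namespace Cfsg.Agent.H8.RfQc2

open Cfsg Subgroup Cfsg.Agent.H18.Rf Cfsg.Agent.H35.RF
open scoped commutatorElement

universe u

theorem abs {X : Type u} [Group X] (A : Subgroup X) [A.Normal] (h2 : ∀ a ∈ A, a * a = 1) (w : X)
    (w3 : w ^ 3 = 1) : ∃ N : A →* A, (∀ a : A, w * a * w⁻¹ = a → N a = a) ∧
      (∀ a : A, w * N a * w⁻¹ = N a) ∧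
      ∀ m : X, (⁅m⁻¹, w⁆ ∈ A ∨ m⁻¹ * w * m⁻¹⁻¹ * w ∈ A) → ∀ a : A, N a = 1 →
        N (MulAut.conjNormal m a) = 1 := by
  have sq : ∀ a : A, a * a = 1 := fun a => Subtype.ext (h2 a a.2)
  let _ : CommGroup A := { (inferInstance : Group A) with
    mul_comm := fun a b => by
      rw [← inv_eq_of_mul_eq_one_right (sq (a * b)), mul_inv_rev, inv_eq_of_mul_eq_one_right (sq a),
        inv_eq_of_mul_eq_one_right (sq b)] }
  obtain ⟨c, hc⟩ : ∃ c : X →* MulAut A, c = MulAut.conjNormal := ⟨_, rfl⟩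
  have cv : ∀ x (a : A), (c x a : X) = x * a * x⁻¹ := fun x a => by rw [hc]; rfl
  have c1 : ∀ x ∈ A, ∀ a, c x a = a := fun x hx a => Subtype.ext (by
    rw [cv, mul_inv_eq_iff_eq_mul]
    exact congrArg Subtype.val (mul_comm (⟨x, hx⟩ : A) a))
  have cm : ∀ x y a, c x (c y a) = c (x * y) a := fun x y a => by rw [map_mul]; rfl
  have w3' : w * (w * w) = 1 := by rw [← w3, pow_three]
  have c3 : ∀ a, c w (c w (c w a)) = a := fun a => by rw [cm, cm, mul_assoc, w3', map_one]; rfl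
  refine ⟨MonoidHom.id A * (c w).toMonoidHom * (c w).toMonoidHom.comp (c w).toMonoidHom,
    fun a ha => ?_, fun a => ?_, fun m hm a ha => ?_⟩
  · have : c w a = a := Subtype.ext ((cv _ _).trans ha)
    change a * c w a * c w (c w a) = a
    rw [this, this, sq, one_mul]
  · rw [← cv]
    congr 1
    change c w (a * c w a * c w (c w a)) = a * c w a * c w (c w a)
    rw [map_mul, map_mul, c3, mul_comm, mul_assoc]
  · rw [← hc]
    change a * c w a * c w (c w a) = 1 at ha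
    change c m a * c w (c m a) * c w (c w (c m a)) = 1
    rcases hm with hm | hm
    · have e : ∀ b, c w (c m b) = c m (c w b) := fun b => by
        rw [← c1 _ hm (c w b), cm, cm, cm, commutatorElement_def]
        congr 2
        group
      rw [e, e, ← map_mul, ← map_mul, ha, map_one]
    · have e : ∀ b, c w (c m b) = c m (c w (c w b)) := fun b => by
        rw [← c1 _ hm (c w (c w b)), cm, cm, cm, cm]
        congr 2
        rw [show m * (m⁻¹ * w * m⁻¹⁻¹ * w) * w * w = w * m * (w * (w * w)) by group, w3', mul_one]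
      rw [e, e, c3, ← map_mul, ← map_mul, mul_right_comm, ha, map_one]

theorem qc2 : Qc2Stmt.{u} := by
  intro G _ _ V z W R ω va ta sq
  have WM : W ≤ MM V z := va.WV.trans (va.VR.trans va.RM)
  have nW : (W.subgroupOf (MM V z)).Normal := (normal_subgroupOf_iff_le_normalizer WM).2 va.nW
  have nR : (R.subgroupOf (MM V z)).Normal := (normal_subgroupOf_iff_le_normalizer va.RM).2 va.nR
  obtain ⟨X, _, π, πs, πk⟩ : ∃ (X : Type u) (_ : Group X) (π : MM V z →* X), Function.Surjective π ∧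
      ∀ m, π m = 1 ↔ (m : G) ∈ W :=
    ⟨_, _, QuotientGroup.mk' (W.subgroupOf (MM V z)), QuotientGroup.mk'_surjective _,
      fun m => (QuotientGroup.eq_one_iff m).trans mem_subgroupOf⟩
  obtain ⟨A, hA⟩ : ∃ A : Subgroup X, A = (R.subgroupOf (MM V z)).map π := ⟨_, rfl⟩
  have : A.Normal := hA ▸ nR.map π πs
  have mA : ∀ m, π m ∈ A ↔ (m : G) ∈ R := fun m => by
    rw [hA]
    refine ⟨fun ⟨r, hr, e⟩ => ?_, fun h => ⟨m, h, rfl⟩⟩
    have : (r⁻¹ * m : MM V z).1 ∈ W := (πk _).1 (by rw [map_mul, map_inv, e, inv_mul_cancel])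
    simpa using mul_mem (mem_subgroupOf.1 hr) (va.VR (va.WV this))
  obtain ⟨w, hw⟩ : ∃ w : MM V z, (w : G) = ω := ⟨⟨ω, ta.om⟩, rfl⟩
  obtain ⟨N, n1, n2, n3⟩ := abs A (fun a ha => by
    obtain ⟨m, rfl⟩ := πs a
    rw [← map_mul, πk]
    exact sq _ ((mA m).1 ha)) (π w) (by
      rw [← map_pow, show w ^ 3 = 1 from Subtype.ext (by
        rw [coe_pow, hw, ← ta.o3, pow_orderOf_eq_one]; rfl), map_one])
  obtain ⟨Q, hQ⟩ : ∃ Q : Subgroup G, ∀ g, g ∈ Q ↔ ∃ (h : g ∈ MM V z) (a : A), N a = 1 ∧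
      (a : X) = π ⟨g, h⟩ :=
    ⟨((N.ker.map A.subtype).comap π).map (MM V z).subtype, fun g =>
      ⟨fun ⟨m, ⟨a, h1, h2⟩, e⟩ => e ▸ ⟨m.2, a, h1, h2⟩, fun ⟨h, a, h1, h2⟩ => ⟨⟨g, h⟩, ⟨a, h1, h2⟩, rfl⟩⟩⟩
  have a1 : Q ⊓ V ≤ W := fun g hg => by
    obtain ⟨h, a, h1, h2⟩ := (hQ g).1 hg.1
    have e : π ⁅(⟨g, h⟩ : MM V z), w⁆ = 1 := (πk _).2 (by subst hw; exact ta.ωV g hg.2)
    rw [map_commutatorElement, commutatorElement_eq_one_iff_mul_comm, ← h2] at e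
    rw [n1 a (by rw [← e, mul_inv_cancel_right])] at h1
    exact (πk ⟨g, h⟩).1 (by rw [← h2, h1]; rfl)
  have a2 : W ≤ Q := fun g hg => (hQ g).2 ⟨WM hg, 1, map_one N, ((πk ⟨g, WM hg⟩).2 hg).symm⟩
  have a3 : Q ≤ R := fun g hg => by
    obtain ⟨h, a, -, h2⟩ := (hQ g).1 hg
    exact (mA ⟨g, h⟩).1 (h2 ▸ a.2)
  have a4 : R ≤ Q ⊔ V := fun r hr => by
    obtain ⟨a, ha⟩ : ∃ a : A, (a : X) = π ⟨r, va.RM hr⟩ := ⟨⟨_, (mA _).2 hr⟩, rfl⟩
    obtain ⟨v, hv⟩ := πs (N a)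
    have e : π ⁅w, v⁆ = 1 := by
      rw [map_commutatorElement, hv, commutatorElement_def, n2, mul_inv_cancel]
    have vV : (v : G) ∈ V := ta.fR v ((mA v).1 (hv ▸ (N a).2))
      (va.WV (by subst hw; exact (πk _).1 e))
    have q : r * (v : G)⁻¹ ∈ Q := (hQ _).2 ⟨mul_mem (va.RM hr) (inv_mem v.2), a * (N a)⁻¹,
      by rw [map_mul, map_inv, n1 _ (n2 a), mul_inv_cancel],
      by rw [coe_mul, coe_inv, ha, ← hv, ← map_inv, ← map_mul]; rfl⟩
    simpa using mul_mem (mem_sup_left q : _ ∈ Q ⊔ V) (mem_sup_right vV)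
  refine ⟨Q, le_antisymm a1 (le_inf a2 va.WV), le_antisymm (sup_le a3 va.VR) a4, fun m hm => ?_⟩
  refine mem_normalizer_fintype fun g hg => ?_
  obtain ⟨h, a, h1, h2⟩ := (hQ g).1 hg
  refine (hQ _).2 ⟨mul_mem (mul_mem hm h) (inv_mem hm), MulAut.conjNormal (π ⟨m, hm⟩) a,
    n3 _ ?_ a h1, by rw [MulAut.conjNormal_apply, h2, ← map_inv, ← map_mul, ← map_mul]; rfl⟩
  subst hw
  refine (ta.sl m⁻¹ (inv_mem hm)).imp (fun e => ?_) fun e => ?_
  · rw [← map_inv, ← map_commutatorElement, mA]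
    exact e
  · rw [← map_inv, ← map_inv, ← map_mul, ← map_mul, ← map_mul, mA]
    exact e

end Cfsg.Agent.H8.RfQc2
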